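import Mathlib
import Cfsg.Agent.Lib.Helper74.O720.Defs
import Cfsg.Agent.Lib.Helper4.SmallSimple
import Cfsg.Agent.Lib.Helper63.O720.T0d
import Cfsg.Agent.Lib.Helper22.O720.T0
import Cfsg.Agent.Lib.Helper20.O720.P9

set_option autoImplicit false

namespace Cfsg.Agent.Lib.Helper74.O720

section general
variable {G : Type*} [Group G] [Finite G]

/-- an element of order dividing 5 normalizing a commutative... group of order 9 centralizes it -/
theorem T2_five (P : Subgroup G) (hP : Nat.card P = 9) (y : G) (hy : y ∈ Nz P) (h5 : y ^ 5 = 1) :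
    ∀ u ∈ P, y * u = u * y := by
  classical
  have := Fintype.ofFinite ↥P
  let f : Function.End ↥P := fun u => ⟨y * u * y⁻¹, (Subgroup.mem_normalizer_iff.1 hy u).1 u.2⟩
  have hfk : ∀ (k : ℕ) (u : ↥P), (((f ^ k) u : ↥P) : G) = y ^ k * u * (y ^ k)⁻¹ := by
    intro k
    induction k with
    | zero =>
      intro u
      show (u : G) = y ^ 0 * u * (y ^ 0)⁻¹
      simp
    | succ k ih =>
      intro u
      rw [pow_succ]
      show (((f ^ k) (f u) : ↥P) : G) = _
      rw [ih]
      show y ^ k * (y * u * y⁻¹) * (y ^ k)⁻¹ = _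
      rw [pow_succ]
      group
  have hf5 : f ^ 5 ^ 1 = 1 := by
    rw [pow_one]
    funext u
    apply Subtype.ext
    rw [hfk, h5]
    show 1 * (u : G) * 1⁻¹ = u
    simp
  have : Fact (Nat.Prime 5) := ⟨by norm_num⟩
  have hfix := Equiv.Perm.card_fixedPoints_modEq (α := ↥P) (f := f) (p := 5) (n := 1) hf5
  let F : Subgroup G := P ⊓ Subgroup.centralizer {y}
  have hFe : Fintype.card (Function.fixedPoints f) = Nat.card F := by
    rw [← Nat.card_eq_fintype_card]
    apply Nat.card_congr
    refine ⟨fun u => ⟨u.1.1, u.1.2, ?_⟩, fun v => ⟨⟨v.1, v.2.1⟩, ?_⟩, fun _ => rfl, fun _ => rfl⟩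
    · show u.1.1 ∈ Subgroup.centralizer {y}
      rw [Subgroup.mem_centralizer_singleton_iff]
      have h1 : y * u.1.1 * y⁻¹ = u.1.1 := congrArg Subtype.val u.2
      calc u.1.1 * y = (y * u.1.1 * y⁻¹) * y := by rw [h1]
        _ = y * u.1.1 := by group
    · have h1 := Subgroup.mem_centralizer_singleton_iff.1 v.2.2
      apply Subtype.ext
      show y * v.1 * y⁻¹ = v.1
      rw [← h1]
      group
  rw [hFe, ← Nat.card_eq_fintype_card, hP] at hfix
  have hFP : F ≤ P := inf_le_left
  have hdvd : Nat.card F ∣ 9 := hP ▸ Subgroup.card_dvd_of_le hFP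
  have hF9 : Nat.card F = 9 := by
    have hle : Nat.card F ≤ 9 := Nat.le_of_dvd (by norm_num) hdvd
    unfold Nat.ModEq at hfix
    generalize Nat.card F = n at *
    interval_cases n <;> omega
  have hFeq : F = P := Subgroup.eq_of_le_of_card_ge hFP (by rw [hF9, hP])
  intro u hu
  have : u ∈ F := hFeq ▸ hu
  exact (Subgroup.mem_centralizer_singleton_iff.1 this.2).symm

end general

variable {G : Type*} [Group G] [Finite G] [IsSimpleGroup G]

theorem T2_not16 (h : Nat.card G = 720) (P : Sylow 3 G) (h45 : Nat.card (Nz (P : Subgroup G)) = 45) :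
    False := by
  have hP9 := card_P h P
  have hPc := comm_P h P
  have hNC : Nz (P : Subgroup G) ≤ Cz (P : Subgroup G) := by
    intro x hx
    have hx45 : x ^ 45 = 1 := by
      have := pow_card_eq_one' (G := ↥(Nz (P : Subgroup G))) (x := ⟨x, hx⟩)
      rw [h45] at this
      exact congrArg Subtype.val this
    -- the 5-part
    have h1 : ∀ u ∈ (P : Subgroup G), x ^ 9 * u = u * x ^ 9 :=
      T2_five (P : Subgroup G) hP9 (x ^ 9) (Subgroup.pow_mem _ hx 9) (by rw [← pow_mul]; exact hx45)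
    -- the 3-part
    have h2 : x ^ 5 ∈ (P : Subgroup G) := by
      have hz : IsPGroup 3 (Subgroup.zpowers (x ^ 5)) := by
        rintro ⟨g, hg⟩
        obtain ⟨n, rfl⟩ := Subgroup.mem_zpowers_iff.1 hg
        refine ⟨2, Subtype.ext ?_⟩
        show ((x ^ 5) ^ n) ^ (3 ^ 2) = 1
        rw [← zpow_natCast, ← zpow_mul, mul_comm, zpow_mul, zpow_natCast, ← pow_mul]
        norm_num
        rw [hx45, one_zpow]
      have := hz.inf_normalizer_sylow P
      have hm : x ^ 5 ∈ Subgroup.zpowers (x ^ 5) ⊓ Nz (P : Subgroup G) :=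
        ⟨Subgroup.mem_zpowers _, Subgroup.pow_mem _ hx 5⟩
      exact (this.le hm).2
    rw [Subgroup.mem_centralizer_iff]
    intro u hu
    have c5 : Commute (x ^ 5) u := hPc _ h2 _ hu
    have c9 : Commute (x ^ 9) u := h1 u hu
    have hxe : x = (x ^ 9)⁻¹ * (x ^ 5 * x ^ 5) := by
      rw [← pow_add, eq_inv_mul_iff_mul_eq, ← pow_succ]
    have c : Commute ((x ^ 9)⁻¹ * (x ^ 5 * x ^ 5)) u := (c9.inv_left).mul_left (c5.mul_left c5)
    rw [← hxe] at c
    exact c.eq.symm
  have htop := Cfsg.Agent.Lib.Helper4.sylow_eq_top_of_normalizer_le_centralizer P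
    (by rw [h]; norm_num) hNC
  rw [htop] at hP9
  rw [Subgroup.card_top, h] at hP9
  omega

theorem n3 (h : Nat.card G = 720) : Nat.card (Sylow 3 G) = 10 ∨ Nat.card (Sylow 3 G) = 40 := by
  obtain ⟨P⟩ : Nonempty (Sylow 3 G) := inferInstance
  have hP9 := card_P h P
  have hN := card_Nz h P
  have hmod : Nat.card (Sylow 3 G) ≡ 1 [MOD 3] := card_sylow_modEq_one 3 G
  have h9 : 9 ∣ Nat.card (Nz (P : Subgroup G)) := by
    rw [← hP9]
    exact Subgroup.card_dvd_of_le Subgroup.le_normalizer
  have hidx : Nat.card (Sylow 3 G) = (Nz (P : Subgroup G)).index := Sylow.card_eq_index_normalizer P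
  have hne : Nz (P : Subgroup G) ≠ ⊤ := by
    apply Nz_ne_top
    · intro hb
      rw [hb, Subgroup.card_bot] at hP9
      omega
    · intro hb
      rw [hb, Subgroup.card_top, h] at hP9
      omega
  have h8 := index_ge h _ hne
  rw [← hidx] at h8
  by_cases h16 : Nat.card (Sylow 3 G) = 16
  · exfalso
    rw [h16] at hN
    exact T2_not16 h P (by omega)
  · obtain ⟨m, hm⟩ := h9
    rw [hm] at hN
    unfold Nat.ModEq at hmod
    generalize Nat.card (Sylow 3 G) = n at *
    have hmn : m * n = 80 := by nlinarith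
    have hn80 : n ∣ 80 := Dvd.intro_left m hmn
    have hle : n ≤ 80 := Nat.le_of_dvd (by norm_num) hn80
    clear hmn hN hm hidx
    interval_cases n <;> omega

end Cfsg.Agent.Lib.Helper74.O720
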